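import Mathlib

/-! A group with a fixed-point-free automorphism of order dividing four acting irreducibly. -/

set_option autoImplicit false

namespace Cfsg.Agent.FpfFour

variable {H V : Type*} [Group H] [AddCommGroup V] [DistribMulAction H V]

theorem fixed_of_diff [Finite V] (c : H) (u : V) (hcop : (orderOf c).Coprime (Nat.card V))
    (hfix : c • (c • u - u) = c • u - u) : c • u = u := by
  set x := c • u - u with hx
  have hpow : ∀ i : ℕ, c ^ i • u - u = i • x := by
    intro i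
    induction i with
    | zero => simp
    | succ k ih =>
      have h1 : c • (c ^ k • u - u) = c • (k • x) := congrArg (c • ·) ih
      rw [smul_sub, ← mul_smul, ← pow_succ', smul_comm, hfix] at h1
      rw [succ_nsmul, ← h1, hx]
      abel
  have h0 : orderOf c • x = 0 := by rw [← hpow, pow_orderOf_eq_one, one_smul, sub_self]
  have hd : addOrderOf x ∣ 1 := hcop ▸ Nat.dvd_gcd (addOrderOf_dvd_of_nsmul_eq_zero h0) (addOrderOf_dvd_natCard x)
  have : x = 0 := AddMonoid.addOrderOf_eq_one_iff.mp (Nat.dvd_one.mp hd)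
  exact sub_eq_zero.mp this

/-- `S` is a nonzero minimal `N`-invariant subgroup. -/
def IsMinInv (N : Subgroup H) (S : AddSubgroup V) : Prop :=
  S ≠ ⊥ ∧ (∀ n ∈ N, ∀ v ∈ S, n • v ∈ S) ∧
    ∀ T : AddSubgroup V, T ≤ S → (∀ n ∈ N, ∀ v ∈ T, n • v ∈ T) → T = ⊥ ∨ T = S

theorem exists_minInv [Finite V] (N : Subgroup H) (W : AddSubgroup V) (hW : W ≠ ⊥)
    (hinv : ∀ n ∈ N, ∀ v ∈ W, n • v ∈ W) : ∃ S, S ≤ W ∧ IsMinInv N S := by
  classical
  obtain ⟨S, hS, hmin⟩ := (Set.toFinite {T : AddSubgroup V | T ≤ W ∧ T ≠ ⊥ ∧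
    ∀ n ∈ N, ∀ v ∈ T, n • v ∈ T}).exists_minimal ⟨W, le_rfl, hW, hinv⟩
  refine ⟨S, hS.1, hS.2.1, hS.2.2, fun T hT hTi => ?_⟩
  by_cases h : T = ⊥
  · exact Or.inl h
  · exact Or.inr (le_antisymm hT (hmin ⟨hT.trans hS.1, h, hTi⟩ hT))

/-- The elements fixing `S` pointwise. -/
def fixK (S : AddSubgroup V) : Subgroup H where
  carrier := {g | ∀ v ∈ S, g • v = v}
  one_mem' v _ := one_smul H v
  mul_mem' {a b} ha hb v hv := by rw [mul_smul, hb v hv, ha v hv]
  inv_mem' {a} ha v hv := by rw [inv_smul_eq_iff, ha v hv]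

theorem minInv_dichotomy {N : Subgroup H}
    {S : AddSubgroup V} (hS : IsMinInv N S) {g : H} (T : AddSubgroup V) (hT : T ≤ S)
    (hTinv : ∀ n ∈ N, ∀ v ∈ T, n • v ∈ T) (hfix : ∀ v ∈ T, g • v = v) : T = ⊥ ∨ g ∈ fixK S := by
  rcases hS.2.2 T hT hTinv with h | h
  · exact Or.inl h
  · exact Or.inr fun v hv => hfix v (h ▸ hv)

theorem fixed_of_minInv [Finite H] [Finite V] {N : Subgroup H} (hcomm : ∀ a ∈ N, ∀ b ∈ N, a * b = b * a)
    (hcop : (Nat.card N).Coprime (Nat.card V)) {g : H} (hg : g ∈ N) (U : AddSubgroup V)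
    (hUinv : ∀ n ∈ N, ∀ v ∈ U, n • v ∈ U)
    (h : ∀ S : AddSubgroup V, S ≤ U → IsMinInv N S → g ∈ fixK S) : ∀ v ∈ U, g • v = v := by
  classical
  have hc : (orderOf g).Coprime (Nat.card V) := by
    refine Nat.Coprime.coprime_dvd_left ?_ hcop
    rw [← Subgroup.orderOf_mk g hg]
    exact orderOf_dvd_natCard _
  let f : V →+ V := DistribSMul.toAddMonoidHom V g - AddMonoidHom.id V
  set W := U.map f with hWdef
  by_cases hW : W = ⊥
  · intro v hv
    have : f v ∈ W := AddSubgroup.mem_map_of_mem f hv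
    rw [hW, AddSubgroup.mem_bot] at this
    exact sub_eq_zero.mp this
  · obtain ⟨S, hSW, hS⟩ := exists_minInv N W hW (by
      rintro n hn _ ⟨u, hu, rfl⟩
      refine ⟨n • u, hUinv n hn u hu, ?_⟩
      show g • (n • u) - n • u = n • (g • u - u)
      rw [smul_sub, ← mul_smul, ← mul_smul, hcomm g hg n hn])
    exfalso
    apply hS.1
    rw [AddSubgroup.eq_bot_iff_forall]
    intro x hx
    have hSU : S ≤ U := hSW.trans (by
      rintro _ ⟨u, hu, rfl⟩
      exact U.sub_mem (hUinv g hg u hu) hu)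
    obtain ⟨u, hu, rfl⟩ := hSW hx
    have hfx : g • (g • u - u) = g • u - u := h S hSU hS _ hx
    show g • u - u = 0
    rw [sub_eq_zero]
    exact fixed_of_diff g u hc hfx

theorem exists_half {g : H} (h : Odd (orderOf g)) : ∃ k : ℕ, g = (g ^ 2) ^ k := by
  obtain ⟨k, hk⟩ := h
  refine ⟨k + 1, ?_⟩
  rw [← pow_mul, show 2 * (k + 1) = orderOf g + 1 by omega, pow_succ, pow_orderOf_eq_one, one_mul]

/-- The hypotheses: compatible fixed-point-free maps with fourth power one. -/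
structure Hyp (σ : MulAut H) (s : V ≃+ V) : Prop where
  oddH : ∀ g : H, Odd (orderOf g)
  oddV : Odd (Nat.card V)
  heq : ∀ h v, s (h • v) = σ h • s v
  hsfix : ∀ v, s (s v) = v → s v = -v
  hσfix : ∀ h, σ (σ h) = h → σ h = h⁻¹
  hσfour : ∀ h, σ (σ (σ (σ h))) = h
  hsfour : ∀ v, s (s (s (s v))) = v

variable {σ : MulAut H} {s : V ≃+ V}

theorem Hyp.two_smul_cancel (H0 : Hyp σ s) {U : AddSubgroup V} {x : V} (hx : x + x ∈ U) : x ∈ U := by
  obtain ⟨k, hk⟩ := H0.oddV
  have h1 : Nat.card V • x = 0 := card_nsmul_eq_zero'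
  have h2 : (k + 1) • (x + x) = x := by
    rw [← two_nsmul, ← mul_nsmul', show (k + 1) * 2 = Nat.card V + 1 by omega, succ_nsmul, h1,
      zero_add]
  rw [← h2]
  exact U.nsmul_mem hx _

theorem Hyp.tsmul (H0 : Hyp σ s) (h : H) (v : V) : s (s (h • v)) = σ (σ h) • s (s v) := by
  rw [H0.heq, H0.heq]

theorem Hyp.fix_plus (H0 : Hyp σ s) {a : H} (ha : σ (σ a) = a) {v : V} (hv : s (s v) = v) :
    a • v = v := by
  have hav : s (s (a • v)) = a • v := by rw [H0.tsmul, ha, hv]
  have h1 := H0.hsfix _ hav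
  rw [H0.heq, H0.hσfix a ha, H0.hsfix v hv, smul_neg, neg_inj, inv_smul_eq_iff] at h1
  have h2 : ∀ k : ℕ, (a ^ 2) ^ k • v = v := by
    intro k
    induction k with
    | zero => simp
    | succ m ih => rw [pow_succ, mul_smul, pow_two, mul_smul, ← h1]; simpa [pow_two] using ih
  obtain ⟨k, hk⟩ := exists_half (H0.oddH a)
  rw [hk]
  exact h2 k

/-- The span of the `M`-translates of the fixed vectors. -/
def transSpan (M : Subgroup H) (s : V ≃+ V) : AddSubgroup V :=
  AddSubgroup.closure {u | ∃ m ∈ M, ∃ v, s (s v) = v ∧ u = m • v}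

theorem transSpan_inv (M : Subgroup H) (s : V ≃+ V) {g : H}
    (hg : ∀ m ∈ M, ∀ v, s (s v) = v → g • m • v ∈ transSpan M s) :
    ∀ u ∈ transSpan M s, g • u ∈ transSpan M s := by
  intro u hu
  induction hu using AddSubgroup.closure_induction with
  | mem x hx => obtain ⟨m, hm, v, hv, rfl⟩ := hx; exact hg m hm v hv
  | zero => rw [smul_zero]; exact zero_mem _
  | add a b _ _ ha hb => rw [smul_add]; exact add_mem ha hb
  | neg a _ ha => rw [smul_neg]; exact neg_mem ha

theorem mem_transSpan {M : Subgroup H} {m : H} (hm : m ∈ M) {v : V} (hv : s (s v) = v) :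
    m • v ∈ transSpan M s :=
  AddSubgroup.subset_closure ⟨m, hm, v, hv, rfl⟩

theorem transSpan_mono_inv (M : Subgroup H) (s : V ≃+ V) {k : H} (hk : k ∈ M) :
    ∀ u ∈ transSpan M s, k • u ∈ transSpan M s :=
  transSpan_inv M s fun m hm v hv => by
    rw [← mul_smul]; exact mem_transSpan (M.mul_mem hk hm) hv

/-- An inverted subgroup moves every vector into the span of translates. -/
theorem Hyp.diff_mem (H0 : Hyp σ s) (M : Subgroup H) (hM : ∀ m ∈ M, σ (σ m) = m⁻¹) {m : H}
    (hm : m ∈ M) (v : V) : m • v - v ∈ transSpan M s := by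
  set U := transSpan M s
  have hplus : ∀ v, s (s v) = v → v ∈ U := fun v hv => by
    simpa using mem_transSpan (s := s) M.one_mem hv
  obtain ⟨j, hj⟩ := exists_half (H0.oddH m)
  set k := m ^ j with hkdef
  have hk : k ∈ M := M.pow_mem hm j
  have hk2 : m = k * k := by
    conv_lhs => rw [hj]
    rw [hkdef, ← pow_add, ← pow_mul, two_mul]
  apply H0.two_smul_cancel
  set p := v + s (s v) with hp
  set q := v - s (s v) with hq
  have hp' : s (s p) = p := by rw [hp, map_add, map_add, H0.hsfour]; abel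
  have hq' : s (s q) = -q := by rw [hq, map_sub, map_sub, H0.hsfour]; abel
  have e : (m • v - v) + (m • v - v) = (m • p - p) + (m • q - q) := by
    rw [hp, hq, smul_add, smul_sub]; abel
  rw [e]
  refine U.add_mem (U.sub_mem (mem_transSpan hm hp') (hplus p hp')) ?_
  have hw : s (s (k • q - k⁻¹ • q)) = k • q - k⁻¹ • q := by
    rw [map_sub, map_sub, H0.tsmul, H0.tsmul, map_inv, map_inv, hM k hk, hq', inv_inv, smul_neg,
      smul_neg]
    abel
  have := transSpan_mono_inv M s hk _ (hplus _ hw)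
  rwa [smul_sub, ← mul_smul, ← hk2, smul_inv_smul] at this

/-- An element of the fixed part normalizing an inverted abelian subgroup fixes the translates. -/
theorem Hyp.fix_translates [Finite H] [Finite V] (H0 : Hyp σ s) (M : Subgroup H)
    (hMc : ∀ a ∈ M, ∀ b ∈ M, a * b = b * a) (hM : ∀ m ∈ M, σ (σ m) = m⁻¹)
    (hcop : (Nat.card M).Coprime (Nat.card V)) {a : H} (ha : σ (σ a) = a)
    (han : ∀ m ∈ M, a * m * a⁻¹ ∈ M) : ∀ u ∈ transSpan M s, a • u = u := by
  set U := transSpan M s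
  have hsum : ∀ m ∈ M, ∀ u ∈ U,
      (a * m * a⁻¹) • u + (a * m * a⁻¹)⁻¹ • u = m • u + m⁻¹ • u := by
    intro m hm u hu
    set m' := a * m * a⁻¹ with hm'
    induction hu using AddSubgroup.closure_induction with
    | mem x hx =>
      obtain ⟨k, hk, v, hv, rfl⟩ := hx
      have key : m' • v + m'⁻¹ • v = m • v + m⁻¹ • v := by
        have he : s (s (m • v + m⁻¹ • v)) = m • v + m⁻¹ • v := by
          rw [map_add, map_add, H0.tsmul, H0.tsmul, map_inv, map_inv, hM m hm, hv, inv_inv,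
            add_comm]
        have h1 := H0.fix_plus ha he
        have hav := H0.fix_plus ha hv
        have c1 : a • m • v = m' • v := by
          conv_rhs => rw [← hav]
          rw [hm', ← mul_smul, ← mul_smul]; congr 1; group
        have c2 : a • m⁻¹ • v = m'⁻¹ • v := by
          conv_rhs => rw [← hav]
          rw [hm', ← mul_smul, ← mul_smul]; congr 1; group
        rwa [smul_add, c1, c2] at h1
      have hm'M : m' ∈ M := han m hm
      have hsw : ∀ x ∈ M, x • k • v = k • x • v := fun x hx => by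
        rw [← mul_smul, hMc x hx k hk, mul_smul]
      rw [hsw _ hm'M, hsw _ (M.inv_mem hm'M), hsw _ hm, hsw _ (M.inv_mem hm), ← smul_add,
        ← smul_add, key]
    | zero => simp
    | add x y _ _ hx hy =>
      rw [smul_add, smul_add, smul_add, smul_add, add_add_add_comm, hx, hy]; abel
    | neg x _ hx => rw [smul_neg, smul_neg, smul_neg, smul_neg, ← neg_add, ← neg_add, hx]
  have hcomm : ∀ m ∈ M, ∀ u ∈ U, (a * m * a⁻¹ * m⁻¹) • u = u := by
    intro m₀ hm₀
    refine fixed_of_minInv hMc hcop (M.mul_mem (han _ hm₀) (M.inv_mem hm₀)) U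
      (fun n hn u hu => transSpan_mono_inv M s hn u hu) ?_
    intro S hSU hS
    set L := fixK (H := H) S with hL
    have hdich : ∀ m ∈ M, a * m * a⁻¹ * m⁻¹ ∈ L ∨ a * m * a⁻¹ * m ∈ L := by
      intro m hm
      set m' := a * m * a⁻¹ with hm'
      have hm'M : m' ∈ M := han m hm
      have hc : m' * m⁻¹ ∈ M := M.mul_mem hm'M (M.inv_mem hm)
      have hd : m' * m ∈ M := M.mul_mem hm'M hm
      let f : V →+ V := DistribSMul.toAddMonoidHom V (m' * m) - AddMonoidHom.id V
      have hT : S.map f ≤ S := by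
        rintro _ ⟨u, hu, rfl⟩
        exact S.sub_mem (hS.2.1 _ hd u hu) hu
      rcases minInv_dichotomy hS (g := m' * m⁻¹) (S.map f) hT (by
        rintro n hn _ ⟨u, hu, rfl⟩
        refine ⟨n • u, hS.2.1 n hn u hu, ?_⟩
        show (m' * m) • (n • u) - n • u = n • ((m' * m) • u - u)
        rw [smul_sub, ← mul_smul, ← mul_smul _ (m' * m), hMc _ hd n hn]) (by
        rintro _ ⟨u, hu, rfl⟩
        show (m' * m⁻¹) • ((m' * m) • u - u) = (m' * m) • u - u
        have e := congrArg (m' • ·) (hsum m hm u (hSU hu))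
        simp only [smul_add, ← mul_smul] at e
        rw [← hm', mul_inv_cancel, one_smul] at e
        have e2 : m' * m⁻¹ * (m' * m) = m' * m' := by
          rw [mul_assoc, ← mul_assoc m⁻¹ m' m, hMc _ (M.inv_mem hm) _ hm'M]; group
        rw [smul_sub, ← mul_smul, e2, eq_sub_iff_add_eq.mpr e]
        abel) with h | h
      · right
        intro u hu
        have : f u ∈ S.map f := AddSubgroup.mem_map_of_mem f hu
        rw [h, AddSubgroup.mem_bot] at this
        exact sub_eq_zero.mp this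
      · exact Or.inl h
    by_cases hQ : ∀ m ∈ M, a * m * a⁻¹ * m ∈ L
    · have hpres : ∀ k ∈ M, k ∈ L → a * k * a⁻¹ ∈ L := fun k hk hkL => by
        simpa using L.mul_mem (hQ k hk) (L.inv_mem hkL)
      have hit : ∀ j : ℕ, ∀ m ∈ M, a ^ j * m * (a ^ j)⁻¹ ∈ M ∧
          (a ^ j * m * (a ^ j)⁻¹) * (if Even j then m⁻¹ else m) ∈ L := by
        intro j
        induction j with
        | zero => intro m hm; simp [hm, L.one_mem]
        | succ i ih =>
          intro m hm
          obtain ⟨hiM, hiL⟩ := ih m hm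
          set x := a ^ i * m * (a ^ i)⁻¹ with hx
          have hxe : a ^ (i + 1) * m * (a ^ (i + 1))⁻¹ = a * x * a⁻¹ := by
            rw [hx, pow_succ']; group
          refine ⟨hxe ▸ han x hiM, ?_⟩
          rw [hxe]
          have h1 := hQ x hiM
          rcases Nat.even_or_odd i with hi | hi
          · rw [if_neg (by simpa [Nat.even_add_one] using hi)]
            rw [if_pos hi] at hiL
            have h2 : a * x * a⁻¹ * m = (a * x * a⁻¹ * x) * (x * m⁻¹)⁻¹ := by
              rw [hMc x hiM m⁻¹ (M.inv_mem hm)]; group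
            rw [h2]
            exact L.mul_mem h1 (L.inv_mem hiL)
          · have hne : ¬ Even i := Nat.not_even_iff_odd.mpr hi
            rw [if_pos (by simpa [Nat.even_add_one] using hne)]
            rw [if_neg hne] at hiL
            have h2 : a * x * a⁻¹ * m⁻¹ = (a * x * a⁻¹ * x) * (x * m)⁻¹ := by
              rw [hMc x hiM m hm]; group
            rw [h2]
            exact L.mul_mem h1 (L.inv_mem hiL)
      obtain ⟨-, hfin⟩ := hit (orderOf a) m₀ hm₀
      rw [pow_orderOf_eq_one, if_neg (Nat.not_even_iff_odd.mpr (H0.oddH a))] at hfin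
      simp only [one_mul, inv_one, mul_one] at hfin
      obtain ⟨k, hk⟩ := exists_half (H0.oddH m₀)
      have hm0L : m₀ ∈ L := by rw [hk, pow_two]; exact L.pow_mem hfin k
      exact L.mul_mem (hpres _ hm₀ hm0L) (L.inv_mem hm0L)
    · push Not at hQ
      obtain ⟨k, hkM, hkQ⟩ := hQ
      have hk1 := (hdich k hkM).resolve_right hkQ
      rcases hdich m₀ hm₀ with h | h
      · exact h
      have hmk : m₀ * k ∈ M := M.mul_mem hm₀ hkM
      have hk' : a * k * a⁻¹ ∈ M := han k hkM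
      rcases hdich _ hmk with h2 | h2
      · have e : a * (m₀ * k) * a⁻¹ * (m₀ * k)⁻¹ =
            (a * m₀ * a⁻¹ * m₀⁻¹) * (a * k * a⁻¹ * k⁻¹) := by
          rw [show a * (m₀ * k) * a⁻¹ * (m₀ * k)⁻¹ =
              a * m₀ * a⁻¹ * ((a * k * a⁻¹ * k⁻¹) * m₀⁻¹) by group,
            hMc _ (M.mul_mem hk' (M.inv_mem hkM)) _ (M.inv_mem hm₀), ← mul_assoc]
        rw [e] at h2
        exact (Subgroup.mul_mem_cancel_right L hk1).mp h2
      · have e : a * (m₀ * k) * a⁻¹ * (m₀ * k) = (a * m₀ * a⁻¹ * m₀) * (a * k * a⁻¹ * k) := by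
          rw [show a * (m₀ * k) * a⁻¹ * (m₀ * k) = a * m₀ * a⁻¹ * ((a * k * a⁻¹ * m₀) * k) by group,
            hMc _ hk' _ hm₀]
          group
        rw [e] at h2
        exact absurd ((Subgroup.mul_mem_cancel_left L h).mp h2) hkQ
  intro u hu
  induction hu using AddSubgroup.closure_induction with
  | mem x hx =>
    obtain ⟨m, hm, v, hv, rfl⟩ := hx
    have h1 : (a * m * a⁻¹ * m⁻¹) • (m • v) = m • v := hcomm m hm _ (mem_transSpan hm hv)
    calc a • m • v = (a * m * a⁻¹) • (a • v) := by rw [← mul_smul, ← mul_smul]; congr 1; group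
      _ = m • v := by rw [H0.fix_plus ha hv]; rwa [← mul_smul, inv_mul_cancel_right] at h1
  | zero => simp
  | add x y _ _ hx hy => rw [smul_add, hx, hy]
  | neg x _ hx => rw [smul_neg, hx]

/-- Twisting: if `σ² x = x⁻¹` and the conjugate by `x` of the fixer of `S` contains the inverted part,
then `x` normalizes that fixer and centralizes the fixed part modulo it. -/
theorem Hyp.twist [Finite H] (H0 : Hyp σ s) (N : Subgroup H) (hN : N.Normal)
    (hNc : ∀ a ∈ N, ∀ b ∈ N, a * b = b * a) (hNτ : ∀ n ∈ N, σ (σ n) ∈ N) (L : Subgroup H)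
    (hLN : L ≤ N) (hLminus : ∀ m ∈ N, σ (σ m) = m⁻¹ → m ∈ L) {x : H} (hx : σ (σ x) = x⁻¹)
    (h1 : ∀ m ∈ N, σ (σ m) = m⁻¹ → x⁻¹ * m * x ∈ L) :
    (∀ k ∈ L, x * k * x⁻¹ ∈ L) ∧ ∀ n ∈ N, σ (σ n) = n → x * n * x⁻¹ * n⁻¹ ∈ L := by
  set T : H → H := fun h => σ (σ h) with hT
  have hTdiff : ∀ n ∈ N, T n * n⁻¹ ∈ N ∧ T (T n * n⁻¹) = (T n * n⁻¹)⁻¹ := fun n hn => by
    refine ⟨N.mul_mem (hNτ n hn) (N.inv_mem hn), ?_⟩
    simp only [hT, map_mul, map_inv, H0.hσfour, mul_inv_rev, inv_inv]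
  -- conjugating by `x⁻²`
  have key : ∀ n ∈ N, (x * x)⁻¹ * T n * (x * x) * n⁻¹ ∈ L := by
    intro n hn
    have hc : x * n * x⁻¹ ∈ N := hN.conj_mem n hn x
    obtain ⟨hd1, hd2⟩ := hTdiff _ hc
    have h := h1 _ hd1 hd2
    simp only [hT, map_mul, map_inv, hx, inv_inv] at h
    have e : (x * x)⁻¹ * T n * (x * x) * n⁻¹ = x⁻¹ * (x⁻¹ * σ (σ n) * x * (x * n * x⁻¹)⁻¹) * x := by
      simp only [hT]; group
    rw [e]; exact h
  have hTL : ∀ n ∈ L, T n ∈ L := fun n hn => by
    obtain ⟨hd1, hd2⟩ := hTdiff n (hLN hn)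
    simpa using L.mul_mem (hLminus _ hd1 hd2) hn
  have hconj : ∀ k ∈ L, (x * x)⁻¹ * k * (x * x) ∈ L := by
    intro k hk
    have h := key (T k) (hNτ k (hLN hk))
    have e : T (T k) = k := H0.hσfour k
    rw [e] at h
    simpa using L.mul_mem h (hTL k hk)
  let Z : Submonoid H :=
    { carrier := {g | (∀ k ∈ L, g * k * g⁻¹ ∈ L) ∧ ∀ n ∈ N, T n = n → g * n * g⁻¹ * n⁻¹ ∈ L}
      one_mem' := ⟨fun k hk => by simpa using hk, fun n hn _ => by simp [L.one_mem]⟩
      mul_mem' := by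
        rintro g h ⟨g1, g2⟩ ⟨h1', h2'⟩
        refine ⟨fun k hk => ?_, fun n hn hn' => ?_⟩
        · have := g1 _ (h1' k hk)
          rwa [show g * h * k * (g * h)⁻¹ = g * (h * k * h⁻¹) * g⁻¹ by group]
        · rw [show g * h * n * (g * h)⁻¹ * n⁻¹ = g * (h * n * h⁻¹ * n⁻¹) * g⁻¹ * (g * n * g⁻¹ * n⁻¹) by group]
          exact L.mul_mem (g1 _ (h2' n hn hn')) (g2 n hn hn') }
  have hz : (x * x)⁻¹ ∈ Z := ⟨fun k hk => by simpa using hconj k hk, fun n hn hn' => by
    have := key n hn; rw [hn'] at this; simpa using this⟩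
  obtain ⟨j, hj⟩ := exists_half (H0.oddH x⁻¹)
  have hxi : x⁻¹ ∈ Z := by
    rw [hj]
    refine Z.pow_mem ?_ j
    rwa [pow_two, ← mul_inv_rev]
  have hxZ : x ∈ Z := by
    have h := Z.pow_mem hxi (orderOf x⁻¹ - 1)
    have e : x⁻¹ ^ (orderOf x⁻¹ - 1) = x := by
      have hpos := orderOf_pos x⁻¹
      have : x⁻¹ ^ (orderOf x⁻¹ - 1) * x⁻¹ = 1 := by
        rw [← pow_succ, Nat.sub_add_cancel hpos, pow_orderOf_eq_one]
      simpa using eq_inv_of_mul_eq_one_left this
    rwa [e] at h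
  exact hxZ

/-- If the conjugate by `x` of the fixed part lies in the fixer, so does the fixed part. -/
theorem Hyp.plus_mem [Finite H] (H0 : Hyp σ s) (N : Subgroup H) (hN : N.Normal)
    (hNc : ∀ a ∈ N, ∀ b ∈ N, a * b = b * a) (hNτ : ∀ n ∈ N, σ (σ n) ∈ N) (L : Subgroup H)
    (hLN : L ≤ N) (hLminus : ∀ m ∈ N, σ (σ m) = m⁻¹ → m ∈ L) {x : H} (hx : σ (σ x) = x⁻¹)
    (h2 : ∀ k ∈ N, σ (σ k) = k → x⁻¹ * k * x ∈ L)
    (hd : (∀ m ∈ N, σ (σ m) = m⁻¹ → (x * x)⁻¹ * m * (x * x) ∈ L) ∨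
      ∀ k ∈ N, σ (σ k) = k → (x * x)⁻¹ * k * (x * x) ∈ L)
    {n : H} (hn : n ∈ N) (hn' : σ (σ n) = n) : n ∈ L := by
  have hxx : σ (σ (x⁻¹ * n * x)) = x * n * x⁻¹ := by
    rw [map_mul, map_mul, map_mul, map_mul, hn', map_inv, map_inv, hx, inv_inv]
  have hxx' : σ (σ (x * n * x⁻¹)) = x⁻¹ * n * x := by rw [← hxx, H0.hσfour]
  have ha : x⁻¹ * n * x ∈ N := by simpa using hN.conj_mem n hn x⁻¹
  have hb : x * n * x⁻¹ ∈ N := hN.conj_mem n hn x
  rcases hd with h3 | h4
  · have hx2 : σ (σ (x * x)) = (x * x)⁻¹ := by rw [map_mul, map_mul, hx, mul_inv_rev]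
    obtain ⟨hnorm, -⟩ := H0.twist N hN hNc hNτ L hLN hLminus hx2 h3
    have hno : ∀ j : ℕ, ∀ k ∈ L, (x * x) ^ j * k * ((x * x) ^ j)⁻¹ ∈ L := by
      intro j
      induction j with
      | zero => intro k hk; simpa using hk
      | succ i ih =>
        intro k hk
        have e : (x * x) ^ (i + 1) * k * ((x * x) ^ (i + 1))⁻¹
            = (x * x) * ((x * x) ^ i * k * ((x * x) ^ i)⁻¹) * (x * x)⁻¹ := by
          generalize x * x = z
          rw [pow_succ']; group
        rw [e]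
        exact hnorm _ (ih k hk)
    obtain ⟨j, hj⟩ := exists_half (H0.oddH x)
    have := hno j _ (h2 n hn hn')
    rw [← pow_two, ← hj] at this
    simpa [mul_assoc] using this
  · set S2 := (x * n * x⁻¹) * (x⁻¹ * n * x) with hS2
    have hS2N : S2 ∈ N := N.mul_mem hb ha
    have hS2f : σ (σ S2) = S2 := by
      rw [hS2, map_mul, map_mul, hxx, hxx', hNc _ ha _ hb]
    have eS : x⁻¹ * S2 * x = n * ((x * x)⁻¹ * n * (x * x)) := by rw [hS2]; group
    have h5 := eS ▸ h2 S2 hS2N hS2f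
    exact (Subgroup.mul_mem_cancel_right L (h4 n hn hn')).mp h5

/-- The `σ²`-fixed part of an abelian normal coprime subgroup is normal. -/
theorem Hyp.conj_fixed [Finite H] [Finite V] [FaithfulSMul H V] (H0 : Hyp σ s) (N : Subgroup H)
    (hN : N.Normal) (hNc : ∀ a ∈ N, ∀ b ∈ N, a * b = b * a) (hNτ : ∀ n ∈ N, σ (σ n) ∈ N)
    (hcop : (Nat.card N).Coprime (Nat.card V)) (h : H) {n : H} (hn : n ∈ N) (hn' : σ (σ n) = n) :
    σ (σ (h * n * h⁻¹)) = h * n * h⁻¹ := by
  let M : Subgroup H :=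
    { carrier := {m | m ∈ N ∧ σ (σ m) = m⁻¹}
      one_mem' := ⟨N.one_mem, by simp⟩
      mul_mem' := fun {a b} ha hb => ⟨N.mul_mem ha.1 hb.1, by
        rw [map_mul, map_mul, ha.2, hb.2, mul_inv_rev, hNc _ (N.inv_mem ha.1) _ (N.inv_mem hb.1)]⟩
      inv_mem' := fun {a} ha => ⟨N.inv_mem ha.1, by rw [map_inv, map_inv, ha.2]⟩ }
  have hzero : ∀ k ∈ N, σ (σ k) = k → ∀ m ∈ M, ∀ v : V, k • (m • v - v) = m • v - v := by
    intro k hk hk' m hm v
    have hu := H0.diff_mem M (fun a ha => ha.2) hm v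
    generalize m • v - v = u at hu ⊢
    induction hu using AddSubgroup.closure_induction with
    | mem z hz =>
      obtain ⟨m', hm', w, hw, rfl⟩ := hz
      rw [← mul_smul, hNc k hk m' hm'.1, mul_smul, H0.fix_plus hk' hw]
    | zero => simp
    | add a b _ _ ha hb => rw [smul_add, ha, hb]
    | neg a _ ha => rw [smul_neg, ha]
  -- `y` is inverted and centralizes the fixed part
  obtain ⟨y, hy⟩ : ∃ y, y = h⁻¹ * σ (σ h) := ⟨_, rfl⟩
  have hyinv : σ (σ y) = y⁻¹ := by
    rw [hy, map_mul, map_mul, map_inv, map_inv, H0.hσfour, mul_inv_rev, inv_inv]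
  suffices hc : y * n * y⁻¹ * n⁻¹ = 1 by
    rw [map_mul, map_mul, map_mul, map_mul, hn', map_inv, map_inv,
      show σ (σ h) = h * y by rw [hy, mul_inv_cancel_left]]
    calc h * y * n * (h * y)⁻¹ = h * (y * n * y⁻¹ * n⁻¹) * n * h⁻¹ := by group
      _ = h * n * h⁻¹ := by rw [hc, mul_one]
  have hcN : y * n * y⁻¹ * n⁻¹ ∈ N := N.mul_mem (hN.conj_mem n hn y) (N.inv_mem hn)
  refine eq_of_smul_eq_smul (α := V) fun v => ?_
  rw [one_smul]
  refine fixed_of_minInv hNc hcop hcN ⊤ (fun _ _ _ _ => trivial) ?_ v trivial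
  intro S _ hS
  have hdich : ∀ g : H, (∀ m ∈ M, g⁻¹ * m * g ∈ fixK S) ∨
      ∀ k ∈ N, σ (σ k) = k → g⁻¹ * k * g ∈ fixK S := by
    intro g
    by_contra hcon
    push Not at hcon
    obtain ⟨⟨m, hm, hmS⟩, k, hk, hk', hkS⟩ := hcon
    have hmN : g⁻¹ * m * g ∈ N := by simpa using hN.conj_mem m hm.1 g⁻¹
    let f : V →+ V := DistribSMul.toAddMonoidHom V (g⁻¹ * m * g) - AddMonoidHom.id V
    rcases minInv_dichotomy hS (g := g⁻¹ * k * g) (S.map f) (by
      rintro _ ⟨u, hu, rfl⟩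
      exact S.sub_mem (hS.2.1 _ hmN u hu) hu) (by
      rintro c hc _ ⟨u, hu, rfl⟩
      refine ⟨c • u, hS.2.1 c hc u hu, ?_⟩
      show (g⁻¹ * m * g) • (c • u) - c • u = c • ((g⁻¹ * m * g) • u - u)
      rw [smul_sub, ← mul_smul, ← mul_smul _ (g⁻¹ * m * g), hNc _ hmN c hc]) (by
      rintro _ ⟨u, hu, rfl⟩
      show (g⁻¹ * k * g) • ((g⁻¹ * m * g) • u - u) = (g⁻¹ * m * g) • u - u
      have e : (g⁻¹ * m * g) • u - u = g⁻¹ • (m • (g • u) - g • u) := by
        rw [smul_sub, mul_smul, mul_smul, inv_smul_smul]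
      rw [e, mul_smul, mul_smul, smul_inv_smul, hzero k hk hk' m hm]) with h0 | h0
    · apply hmS
      intro u hu
      have : f u ∈ S.map f := AddSubgroup.mem_map_of_mem f hu
      rw [h0, AddSubgroup.mem_bot] at this
      exact sub_eq_zero.mp this
    · exact hkS h0
  set L : Subgroup H := fixK S ⊓ N with hLdef
  have hnL : ∀ g : H, (∀ m ∈ M, g⁻¹ * m * g ∈ fixK S) → ∀ m ∈ N, σ (σ m) = m⁻¹ → g⁻¹ * m * g ∈ L :=
    fun g hg m hm hm' => ⟨hg m ⟨hm, hm'⟩, by simpa using hN.conj_mem m hm g⁻¹⟩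
  have hconjN : ∀ g : H, ∀ k ∈ N, g⁻¹ * k * g ∈ N := fun g k hk => by
    simpa using hN.conj_mem k hk g⁻¹
  have hdL : ∀ g : H, (∀ m ∈ N, σ (σ m) = m⁻¹ → g⁻¹ * m * g ∈ L) ∨
      ∀ k ∈ N, σ (σ k) = k → g⁻¹ * k * g ∈ L := fun g => (hdich g).imp (hnL g)
    fun h2 k hk hk' => ⟨h2 k hk hk', hconjN g k hk⟩
  by_cases hA : ∀ m ∈ N, σ (σ m) = m⁻¹ → m ∈ L
  · rcases hdL y with h1 | h2
    · exact ((H0.twist N hN hNc hNτ L inf_le_right hA hyinv h1).2 n hn hn').1
    · have hp : ∀ k ∈ N, σ (σ k) = k → k ∈ L := fun k hk hk' =>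
        H0.plus_mem N hN hNc hNτ L inf_le_right hA hyinv h2 (hdL (y * y)) hk hk'
      have hbL : y * n * y⁻¹ ∈ L := by
        have hT' : ∀ k ∈ L, σ (σ k) ∈ L := fun k hk => by
          have h0 := hA (σ (σ k) * k⁻¹) (N.mul_mem (hNτ k hk.2) (N.inv_mem hk.2)) (by
            simp only [map_mul, map_inv, H0.hσfour, mul_inv_rev, inv_inv])
          simpa using L.mul_mem h0 hk
        have := hT' _ (h2 n hn hn')
        rwa [map_mul, map_mul, map_mul, map_mul, hn', map_inv, map_inv, hyinv, inv_inv] at this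
      exact (L.mul_mem hbL (L.inv_mem (hp n hn hn'))).1
  · have hp : ∀ k ∈ N, σ (σ k) = k → k ∈ L := by
      rcases hdL 1 with h1 | h2
      · exact absurd (fun m hm hm' => by simpa using h1 m hm hm') hA
      · intro k hk hk'; simpa using h2 k hk hk'
    refine (fixK S).mul_mem ?_ ((fixK S).inv_mem (hp n hn hn').1)
    rcases hdL y⁻¹ with h1 | h2
    · -- pass to the conjugate fixer
      set L' : Subgroup H := L.comap (MulAut.conj y).toMonoidHom ⊓ N with hL'
      have hm' : ∀ g : H, g ∈ N → y * g * y⁻¹ ∈ L → g ∈ L' := fun g hg hgL => ⟨hgL, hg⟩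
      have hd' : (∀ m ∈ N, σ (σ m) = m⁻¹ → (y * y)⁻¹ * m * (y * y) ∈ L') ∨
          ∀ k ∈ N, σ (σ k) = k → (y * y)⁻¹ * k * (y * y) ∈ L' := by
        refine (hdL y).imp (fun h0 k hk hk' => hm' _ (hconjN _ k hk) ?_)
          (fun h0 k hk hk' => hm' _ (hconjN _ k hk) ?_) <;>
        · convert h0 k hk hk' using 1; group
      have := H0.plus_mem N hN hNc hNτ L' inf_le_right
        (fun m hm hmi => hm' m hm (by simpa using h1 m hm hmi)) hyinv
        (fun k hk hk' => hm' _ (hconjN _ k hk) (by simpa [mul_assoc] using hp k hk hk')) hd' hn hn'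
      exact this.1.1
    · simpa using (h2 n hn hn').1

/-- The irreducible configuration: `H` is abelian as soon as it has a nontrivial invariant abelian
normal subgroup of order prime to `|V|`, taken minimal. -/
theorem Hyp.comm [Finite H] [Finite V] [FaithfulSMul H V] (H0 : Hyp σ s)
    (hirr : ∀ U : AddSubgroup V, (∀ h : H, ∀ v ∈ U, h • v ∈ U) → (∀ v ∈ U, s v ∈ U) → U = ⊥ ∨ U = ⊤)
    (N : Subgroup H) (hN : N.Normal) (hN1 : N ≠ ⊥) (hNc : ∀ a ∈ N, ∀ b ∈ N, a * b = b * a)
    (hNσ : ∀ n ∈ N, σ n ∈ N) (hcop : (Nat.card N).Coprime (Nat.card V))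
    (hmin : ∀ K : Subgroup H, K ≤ N → K.Normal → (∀ n ∈ K, σ n ∈ K) → K = ⊥ ∨ K = N) :
    ∀ a b : H, a * b = b * a := by
  have hσinv : ∀ g, σ (σ g) = g → ∀ k, σ (σ k) = k → g * k = k * g := by
    intro g hg k hk
    have hgk : σ (σ (g * k)) = g * k := by rw [map_mul, map_mul, hg, hk]
    have h1 := H0.hσfix _ hgk
    rw [map_mul, H0.hσfix g hg, H0.hσfix k hk, mul_inv_rev] at h1
    have := congrArg (fun x => x⁻¹) h1
    simpa using this.symm
  have hNτ : ∀ n ∈ N, σ (σ n) ∈ N := fun n hn => hNσ _ (hNσ n hn)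
  let P : Subgroup H :=
    { carrier := {n | n ∈ N ∧ σ (σ n) = n}
      one_mem' := ⟨N.one_mem, by simp⟩
      mul_mem' := fun {a b} ha hb => ⟨N.mul_mem ha.1 hb.1, by rw [map_mul, map_mul, ha.2, hb.2]⟩
      inv_mem' := fun {a} ha => ⟨N.inv_mem ha.1, by rw [map_inv, map_inv, ha.2]⟩ }
  have hPn : P.Normal := ⟨fun n hn h => ⟨hN.conj_mem n hn.1 h,
    H0.conj_fixed N hN hNc hNτ hcop h hn.1 hn.2⟩⟩
  rcases hmin P (fun n hn => hn.1) hPn (fun n hn => ⟨hNσ n hn.1, by rw [hn.2]⟩) with hP | hP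
  · -- `N` is inverted: the fixed part of `σ²` is trivial
    have hNinv : ∀ n ∈ N, σ (σ n) = n⁻¹ := by
      intro n hn
      have : σ (σ n) * n ∈ P := ⟨N.mul_mem (hNτ n hn) hn, by
        rw [map_mul, map_mul, H0.hσfour, hNc _ hn _ (hNτ n hn)]⟩
      rw [hP, Subgroup.mem_bot] at this
      exact eq_inv_of_mul_eq_one_left this
    have hA : ∀ a : H, σ (σ a) = a → a = 1 := by
      intro a ha
      have hfix := H0.fix_translates N hNc hNinv hcop ha (fun m hm => hN.conj_mem m hm a)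
      set W := AddSubgroup.closure {u : V | ∃ n ∈ N, ∃ v : V, u = n • v - v} with hW
      have hWU : W ≤ transSpan N s := by
        rw [hW, AddSubgroup.closure_le]
        rintro _ ⟨n, hn, v, rfl⟩
        exact H0.diff_mem N hNinv hn v
      have hWne : W ≠ ⊥ := fun hb => hN1 <| (Subgroup.eq_bot_iff_forall _).mpr fun n hn =>
        eq_of_smul_eq_smul (α := V) fun v => by
          have : n • v - v ∈ W := AddSubgroup.subset_closure ⟨n, hn, v, rfl⟩
          rw [hb, AddSubgroup.mem_bot, sub_eq_zero] at this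
          rw [this, one_smul]
      have hWtop : W = ⊤ := by
        refine (hirr W ?_ ?_).resolve_left hWne
        · intro h u hu
          induction hu using AddSubgroup.closure_induction with
          | mem x hx =>
            obtain ⟨n, hn, v, rfl⟩ := hx
            refine AddSubgroup.subset_closure ⟨h * n * h⁻¹, hN.conj_mem n hn h, h • v, ?_⟩
            rw [smul_sub, mul_smul, mul_smul, inv_smul_smul]
          | zero => rw [smul_zero]; exact zero_mem _
          | add a b _ _ ha hb => rw [smul_add]; exact add_mem ha hb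
          | neg a _ ha => rw [smul_neg]; exact neg_mem ha
        · intro u hu
          induction hu using AddSubgroup.closure_induction with
          | mem x hx =>
            obtain ⟨n, hn, v, rfl⟩ := hx
            exact AddSubgroup.subset_closure ⟨σ n, hNσ n hn, s v, by rw [map_sub, H0.heq]⟩
          | zero => rw [map_zero]; exact zero_mem _
          | add a b _ _ ha hb => rw [map_add]; exact add_mem ha hb
          | neg a _ ha => rw [map_neg]; exact neg_mem ha
      refine eq_of_smul_eq_smul (α := V) fun v => ?_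
      rw [one_smul, hfix v (hWU (hWtop ▸ AddSubgroup.mem_top v))]
    have hfpf : MonoidHom.FixedPointFree ((σ * σ : MulAut H) : H →* H) := fun g hg => hA g hg
    exact fun a b => hfpf.commute_all_of_involutive (fun g => H0.hσfour g) a b
  · -- `N` is fixed: then `σ²` is the identity on `H`
    have hNfix : ∀ n ∈ N, σ (σ n) = n := fun n hn => (hP.ge hn).2
    let C : AddSubgroup V :=
      { carrier := {v | ∀ n ∈ N, n • v = v}
        zero_mem' := fun n _ => smul_zero n
        add_mem' := fun {a b} ha hb n hn => by rw [smul_add, ha n hn, hb n hn]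
        neg_mem' := fun {a} ha n hn => by rw [smul_neg, ha n hn] }
    have hsN : ∀ n ∈ N, σ⁻¹ n ∈ N := by
      intro n hn
      have : σ⁻¹ n = σ (σ (σ n)) := by
        apply σ.injective
        rw [MulAut.apply_inv_self, H0.hσfour]
      rw [this]; exact hNσ _ (hNτ n hn)
    have hC : C = ⊥ := by
      refine (hirr C ?_ ?_).resolve_right ?_
      · intro h v hv n hn
        have := hv _ (hN.conj_mem n hn h⁻¹)
        rw [inv_inv, mul_smul, mul_smul] at this
        exact inv_smul_eq_iff.mp this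
      · intro v hv n hn
        have h1 := congrArg s (hv _ (hsN n hn))
        rwa [H0.heq, MulAut.apply_inv_self] at h1
      · intro ht
        exact hN1 <| (Subgroup.eq_bot_iff_forall _).mpr fun n hn =>
          eq_of_smul_eq_smul (α := V) fun v => by
            rw [one_smul]; exact (ht.ge (AddSubgroup.mem_top v)) n hn
    have hneg : ∀ v, s (s v) = -v := by
      intro v
      have hp : s (s (v + s (s v))) = v + s (s v) := by rw [map_add, map_add, H0.hsfour, add_comm]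
      have : v + s (s v) ∈ C := fun n hn => H0.fix_plus (hNfix n hn) hp
      rw [hC, AddSubgroup.mem_bot] at this
      exact (eq_neg_of_add_eq_zero_right this)
    have htriv : ∀ g, σ (σ g) = g := fun g => eq_of_smul_eq_smul (α := V) fun v => by
      have h1 := H0.tsmul g (-v)
      rw [hneg, hneg, neg_neg, smul_neg, neg_neg] at h1
      exact h1.symm
    exact fun a b => hσinv a (htriv a) b (htriv b)

end Cfsg.Agent.FpfFour
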