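import Cfsg.Agent.FpfFour.Action
import Cfsg.Agent.S0032

/-! A solvable group with a fixed-point-free automorphism of order dividing four has nilpotent
derived subgroup. -/

set_option autoImplicit false

open scoped commutatorElement

universe u

namespace Cfsg.Agent.FpfFour

theorem odd_card {G : Type*} [Group G] [Finite G] (σ : MulAut G) (h4 : ∀ g, σ (σ (σ (σ g))) = g)
    (hfpf : ∀ g : G, σ g = g → g = 1) : Odd (Nat.card G) := by
  classical
  haveI := Fintype.ofFinite G
  let π : Equiv.Perm G := σ.toEquiv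
  have hπ : ∀ g, π g = σ g := fun g => rfl
  have h : π ^ 2 ^ 2 = 1 := by
    ext g; simpa [pow_succ, hπ] using h4 g
  have := Equiv.Perm.card_compl_support_modEq (p := 2) h
  have e : π.supportᶜ = {1} := by
    ext g; simp only [Finset.mem_compl, Equiv.Perm.mem_support, not_not, Finset.mem_singleton]
    rw [hπ]
    exact ⟨hfpf g, fun hg => by subst hg; simp⟩
  rw [e, Finset.card_singleton] at this
  rw [Nat.odd_iff, Nat.card_eq_fintype_card]
  exact this.symm

theorem fix_inv {G : Type*} [Group G] [Finite G] (σ : MulAut G) (hfpf : ∀ g : G, σ g = g → g = 1)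
    (x : G) (hx : σ (σ x) = x) : σ x = x⁻¹ := by
  let A : Subgroup G :=
    { carrier := {g | σ (σ g) = g}
      one_mem' := by simp
      mul_mem' := fun {a b} ha hb => by simp only [Set.mem_setOf_eq, map_mul] at *; rw [ha, hb]
      inv_mem' := fun {a} ha => by simp only [Set.mem_setOf_eq, map_inv] at *; rw [ha] }
  let ψ : A →* A :=
    { toFun := fun a => ⟨σ a, congrArg σ a.2⟩
      map_one' := by ext; simp
      map_mul' := fun a b => by ext; simp }
  have hψ : MonoidHom.FixedPointFree ψ := fun a ha => Subtype.ext (hfpf a (congrArg Subtype.val ha))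
  exact congrArg Subtype.val (congrFun (hψ.coe_eq_inv_of_involutive fun a => Subtype.ext a.2) ⟨x, hx⟩)

/-- A minimal invariant normal subgroup of a solvable group. -/
theorem exists_min {G : Type*} [Group G] [Finite G] [Group.IsSolvable G] [Nontrivial G] (σ : MulAut G) :
    ∃ (V : Subgroup G) (p : ℕ), p.Prime ∧ V.Normal ∧ V ≠ ⊥ ∧ (∀ a ∈ V, ∀ b ∈ V, a * b = b * a) ∧
      (∀ v ∈ V, σ v ∈ V) ∧ IsPGroup p V ∧
      ∀ K : Subgroup G, K ≤ V → K.Normal → (∀ v ∈ K, σ v ∈ K) → K = ⊥ ∨ K = V := by
  classical
  obtain ⟨V, hV, hmin⟩ := (Set.toFinite {K : Subgroup G | K.Normal ∧ K ≠ ⊥ ∧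
    ∀ v ∈ K, σ v ∈ K}).exists_minimal ⟨⊤, inferInstance, top_ne_bot, fun v _ => trivial⟩
  obtain ⟨hVn, hV1, hVσ⟩ := hV
  haveI := hVn
  have hmin' : ∀ K : Subgroup G, K ≤ V → K.Normal → (∀ v ∈ K, σ v ∈ K) → K = ⊥ ∨ K = V := by
    intro K hK hKn hKσ
    by_cases h : K = ⊥
    · exact Or.inl h
    · exact Or.inr (le_antisymm hK (hmin ⟨hKn, h, hKσ⟩ hK))
  have hab : ∀ a ∈ V, ∀ b ∈ V, a * b = b * a := by
    have hlt : ⁅V, V⁆ < V := Group.IsSolvable.commutator_lt_of_ne_bot hV1
    have hz : ⁅V, V⁆ = ⊥ := by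
      refine (hmin' _ hlt.le inferInstance ?_).resolve_right hlt.ne
      intro v hv
      have hle : (⁅V, V⁆).map σ.toMonoidHom ≤ ⁅V, V⁆ := by
        rw [Subgroup.map_commutator]
        exact Subgroup.commutator_mono (Subgroup.map_le_iff_le_comap.mpr hVσ)
          (Subgroup.map_le_iff_le_comap.mpr hVσ)
      exact hle ⟨v, hv, rfl⟩
    intro a ha b hb
    have := Subgroup.commutator_eq_bot_iff_le_centralizer.mp hz ha
    exact (Subgroup.mem_centralizer_iff.mp this b hb).symm
  obtain ⟨p, hp, hpd⟩ := Nat.exists_prime_and_dvd (mt Subgroup.card_eq_one.mp hV1)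
  haveI := Fact.mk hp
  let K : Subgroup G :=
    { carrier := {v | v ∈ V ∧ v ^ p = 1}
      one_mem' := ⟨V.one_mem, one_pow p⟩
      mul_mem' := fun {a b} ha hb => ⟨V.mul_mem ha.1 hb.1, by
        rw [(show Commute a b from hab a ha.1 b hb.1).mul_pow, ha.2, hb.2, one_mul]⟩
      inv_mem' := fun {a} ha => ⟨V.inv_mem ha.1, by rw [inv_pow, ha.2, inv_one]⟩ }
  have hK : K = V := by
    refine (hmin' K (fun v hv => hv.1) ⟨fun v hv g => ⟨hVn.conj_mem v hv.1 g, by
      rw [conj_pow, hv.2, mul_one, mul_inv_cancel]⟩⟩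
      (fun v hv => ⟨hVσ v hv.1, by rw [← map_pow, hv.2, map_one]⟩)).resolve_left ?_
    obtain ⟨x, hx⟩ := exists_prime_orderOf_dvd_card' p hpd
    intro hb
    have hxK : (x : G) ∈ K := ⟨x.2, by rw [← Subgroup.coe_pow, ← hx, pow_orderOf_eq_one]; rfl⟩
    rw [hb, Subgroup.mem_bot] at hxK
    rw [orderOf_eq_one_iff.mpr (Subtype.ext hxK)] at hx
    exact hp.ne_one hx.symm
  refine ⟨V, p, hp, hVn, hV1, hab, hVσ, ?_, hmin'⟩
  intro v
  exact ⟨1, Subtype.ext (by rw [pow_one]; exact (hK.ge v.2).2)⟩

/-- The derived subgroup centralizes a minimal invariant normal subgroup. -/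
theorem commutator_le_centralizer {G : Type*} [Group G] [Finite G] [Group.IsSolvable G] (σ : MulAut G)
    (h4 : ∀ g, σ (σ (σ (σ g))) = g) (hfpf : ∀ g : G, σ g = g → g = 1) (V : Subgroup G) [V.Normal]
    {p : ℕ} (hp : p.Prime) (hV : IsPGroup p V) (hV1 : V ≠ ⊥)
    (hVc : ∀ a ∈ V, ∀ b ∈ V, a * b = b * a) (hVσ : ∀ v ∈ V, σ v ∈ V)
    (hmin : ∀ K : Subgroup G, K ≤ V → K.Normal → (∀ v ∈ K, σ v ∈ K) → K = ⊥ ∨ K = V) :
    commutator G ≤ Subgroup.centralizer (V : Set G) := by
  classical
  haveI := Fact.mk hp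
  letI : CommGroup V :=
    { (inferInstance : Group V) with mul_comm := fun a b => Subtype.ext (hVc a a.2 b b.2) }
  set C : Subgroup G := (MulAut.conjNormal : G →* MulAut V).ker with hC
  have hCmem : ∀ g, g ∈ C ↔ ∀ v ∈ V, g * v * g⁻¹ = v := by
    intro g
    rw [hC, MonoidHom.mem_ker]
    refine ⟨fun h v hv => ?_, fun h => MulEquiv.ext fun v => Subtype.ext ?_⟩
    · have := congrArg (fun e : MulAut V => (e ⟨v, hv⟩ : G)) h
      simpa using this
    · simpa using h v v.2
  have hCσ : C.map σ.toMonoidHom = C := by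
    refine Subgroup.eq_of_le_of_card_ge ?_ (Subgroup.card_map_of_injective σ.injective).ge
    rintro _ ⟨g, hg, rfl⟩
    rw [hCmem]
    intro v hv
    have hw : σ (σ (σ v)) ∈ V := hVσ _ (hVσ _ (hVσ v hv))
    have := congrArg σ ((hCmem g).mp hg _ hw)
    simpa [h4] using this
  let φ : G →* MulAut V := MulAut.conjNormal
  let σq : MulAut (G ⧸ C) := QuotientGroup.congr C C σ hCσ
  have hσq : ∀ g : G, σq (g : G ⧸ C) = ((σ g : G) : G ⧸ C) := fun g => rfl
  have hqfpf : ∀ x : G ⧸ C, σq x = x → x = 1 := by
    intro x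
    induction x using QuotientGroup.induction_on with
    | _ g =>
      intro h
      rw [hσq, QuotientGroup.eq] at h
      rw [QuotientGroup.eq_one_iff]
      exact Cfsg.Agent.S0032.result σ (fun a ha => hfpf a ha) C
        (fun n hn => hCσ.le ⟨n, hn, rfl⟩) g h
  letI : DistribMulAction (G ⧸ C) (Additive V) :=
    { smul := fun q v => Additive.ofMul (QuotientGroup.kerLift φ q v.toMul)
      one_smul := fun v => by
        show Additive.ofMul (QuotientGroup.kerLift φ 1 v.toMul) = v
        rw [map_one]; rfl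
      mul_smul := fun a b v => by
        show Additive.ofMul (QuotientGroup.kerLift φ (a * b) v.toMul) = _
        rw [map_mul]; rfl
      smul_zero := fun q => congrArg Additive.ofMul (map_one (QuotientGroup.kerLift φ q))
      smul_add := fun q v w => congrArg Additive.ofMul (map_mul (QuotientGroup.kerLift φ q) _ _) }
  have hsmul : ∀ (g : G) (v : Additive V), ((((g : G ⧸ C) • v).toMul : V) : G) = g * (v.toMul : G) * g⁻¹ :=
    fun g v => rfl
  haveI : FaithfulSMul (G ⧸ C) (Additive V) := ⟨fun {a b} h => QuotientGroup.kerLift_injective φ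
    (MulEquiv.ext fun v => Additive.ofMul.injective (h (Additive.ofMul v)))⟩
  let eV : V ≃* V :=
    { toFun := fun v => ⟨σ v, hVσ v v.2⟩
      invFun := fun v => ⟨σ (σ (σ v)), hVσ _ (hVσ _ (hVσ v v.2))⟩
      left_inv := fun v => Subtype.ext (h4 v)
      right_inv := fun v => Subtype.ext (h4 v)
      map_mul' := fun a b => Subtype.ext (map_mul σ _ _) }
  let s : Additive V ≃+ Additive V := MulEquiv.toAdditive eV
  have hs : ∀ v : Additive V, ((s v).toMul : G) = σ (v.toMul : G) := fun v => rfl
  have hodd := odd_card σ h4 hfpf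
  have H0 : Hyp σq s := by
    refine ⟨fun g => hodd.of_dvd_nat ((orderOf_dvd_natCard g).trans C.card_quotient_dvd_card), ?_, ?_,
      ?_, fun h hh => fix_inv σq hqfpf h hh, ?_, ?_⟩
    · rw [Nat.card_congr Additive.toMul]; exact hodd.of_dvd_nat V.card_subgroup_dvd_card
    · intro h v
      induction h using QuotientGroup.induction_on with
      | _ g =>
        apply Additive.toMul.injective; apply Subtype.ext
        rw [hs, hσq, hsmul, hsmul, hs, map_mul, map_mul, map_inv]
    · intro v hv
      apply Additive.toMul.injective; apply Subtype.ext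
      rw [hs, toMul_neg, Subgroup.coe_inv]
      exact fix_inv σ hfpf _ (congrArg (fun x : Additive V => ((x.toMul : V) : G)) hv)
    · intro h
      induction h using QuotientGroup.induction_on with
      | _ g => rw [hσq, hσq, hσq, hσq, h4]
    · intro v; apply Additive.toMul.injective; apply Subtype.ext; exact h4 _
  have hirr : ∀ U : AddSubgroup (Additive V), (∀ h : G ⧸ C, ∀ v ∈ U, h • v ∈ U) →
      (∀ v ∈ U, s v ∈ U) → U = ⊥ ∨ U = ⊤ := by
    intro U hUh hUs
    let K : Subgroup G := (AddSubgroup.toSubgroup' U).map V.subtype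
    have hKmem : ∀ w : V, (w : G) ∈ K ↔ Additive.ofMul w ∈ U := by
      intro w
      constructor
      · rintro ⟨w', hw', h⟩
        rw [show w' = w from Subtype.ext h] at hw'
        exact hw'
      · intro h; exact ⟨w, h, rfl⟩
    rcases hmin K (Subgroup.map_subtype_le _) ⟨fun v hv g => by
        obtain ⟨w, hw, rfl⟩ := hv
        exact (hKmem (MulAut.conjNormal g w)).mpr (hUh (g : G ⧸ C) _ hw)⟩ (fun v hv => by
        obtain ⟨w, hw, rfl⟩ := hv
        exact (hKmem ⟨σ w, hVσ w w.2⟩).mpr (hUs _ hw)) with h | h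
    · left
      rw [AddSubgroup.eq_bot_iff_forall]
      intro x hx
      have := (hKmem x.toMul).mpr hx
      rw [h, Subgroup.mem_bot] at this
      exact Additive.toMul.injective (Subtype.ext this)
    · right
      rw [eq_top_iff]
      intro x _
      exact (hKmem x.toMul).mp (h.ge x.toMul.2)
  have hcomm : ∀ a b : G ⧸ C, a * b = b * a := by
    rcases subsingleton_or_nontrivial (G ⧸ C) with h | h
    · exact fun a b => Subsingleton.elim _ _
    obtain ⟨N, r, hr, hNn, hN1, hNc, hNσ, hNr, hNmin⟩ := exists_min σq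
    haveI := Fact.mk hr
    refine H0.comm hirr N hNn hN1 hNc hNσ ?_ hNmin
    obtain ⟨k, hk⟩ := hNr.exists_card_eq
    obtain ⟨j, hj⟩ := hV.exists_card_eq
    rw [Nat.card_congr Additive.toMul, hk, hj]
    refine Nat.Coprime.pow k j ((Nat.coprime_primes hr hp).mpr ?_)
    rintro rfl
    -- a normal `p`-subgroup acts trivially
    have hd : r ∣ Nat.card (Additive V) := by
      rw [Nat.card_congr Additive.toMul, hj]
      refine dvd_pow_self r ?_
      rintro rfl
      exact hV1 (Subgroup.card_eq_one.mp (by simpa using hj))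
    obtain ⟨w, hw, hw0⟩ := hNr.exists_fixed_point_of_prime_dvd_card_of_fixed_point (Additive V) hd
      (a := 0) (fun n => smul_zero (n : G ⧸ C))
    let U : AddSubgroup (Additive V) :=
      { carrier := {v | ∀ n ∈ N, n • v = v}
        zero_mem' := fun n _ => smul_zero n
        add_mem' := fun {a b} ha hb n hn => by rw [smul_add, ha n hn, hb n hn]
        neg_mem' := fun {a} ha n hn => by rw [smul_neg, ha n hn] }
    have hU : U = ⊤ := by
      refine (hirr U ?_ ?_).resolve_left ?_
      · intro h v hv n hn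
        have := hv _ (hNn.conj_mem n hn h⁻¹)
        rw [inv_inv, mul_smul, mul_smul] at this
        exact inv_smul_eq_iff.mp this
      · intro v hv n hn
        have h1 := congrArg s (hv _ (hNσ _ (hNσ _ (hNσ n hn))))
        rwa [H0.heq, H0.hσfour] at h1
      · intro hb
        have : w ∈ U := fun n hn => hw ⟨n, hn⟩
        rw [hb, AddSubgroup.mem_bot] at this
        exact hw0 this.symm
    exact hN1 <| (Subgroup.eq_bot_iff_forall _).mpr fun n hn =>
      eq_of_smul_eq_smul (α := Additive V) fun v => by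
        rw [one_smul]; exact (hU.ge (AddSubgroup.mem_top v)) n hn
  rw [commutator_def, Subgroup.commutator_le]
  intro a _ b _
  have : ⁅a, b⁆ ∈ C := by
    rw [← QuotientGroup.eq_one_iff, ← QuotientGroup.mk'_apply C, map_commutatorElement]
    exact commutatorElement_eq_one_iff_commute.mpr (hcomm _ _)
  rw [Subgroup.mem_centralizer_iff]
  intro v hv
  exact (mul_inv_eq_iff_eq_mul.mp ((hCmem _).mp this v hv)).symm

theorem nilpotent_commutator_aux : ∀ (n : ℕ) (G : Type u) [Group G] [Finite G] [Group.IsSolvable G]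
    (σ : MulAut G), Nat.card G = n → (∀ g, σ (σ (σ (σ g))) = g) → (∀ g : G, σ g = g → g = 1) →
    Group.IsNilpotent (commutator G) := by
  intro n
  induction n using Nat.strong_induction_on with
  | _ n ih =>
    intro G _ _ _ σ hn h4 hfpf
    rcases subsingleton_or_nontrivial G with h | h
    · infer_instance
    obtain ⟨V, p, hp, hVn, hV1, hVc, hVσ, hVp, hmin⟩ := exists_min σ
    have hVmap : V.map σ.toMonoidHom = V :=
      Subgroup.eq_of_le_of_card_ge (Subgroup.map_le_iff_le_comap.mpr hVσ)
        (Subgroup.card_map_of_injective σ.injective).ge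
    let σv : MulAut (G ⧸ V) := QuotientGroup.congr V V σ hVmap
    have hσv : ∀ g : G, σv (g : G ⧸ V) = ((σ g : G) : G ⧸ V) := fun g => rfl
    have hlt : Nat.card (G ⧸ V) < n := by
      rw [← hn, Subgroup.card_eq_card_quotient_mul_card_subgroup V]
      exact lt_mul_of_one_lt_right Nat.card_pos ((Subgroup.one_lt_card_iff_ne_bot V).mpr hV1)
    have hQ : Group.IsNilpotent (commutator (G ⧸ V)) := by
      refine ih _ hlt (G ⧸ V) σv rfl ?_ ?_
      · intro x
        induction x using QuotientGroup.induction_on with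
        | _ g => rw [hσv, hσv, hσv, hσv, h4]
      · intro x
        induction x using QuotientGroup.induction_on with
        | _ g =>
          intro hx
          rw [hσv, QuotientGroup.eq] at hx
          rw [QuotientGroup.eq_one_iff]
          exact Cfsg.Agent.S0032.result σ (fun a ha => hfpf a ha) V hVσ g hx
    have hcen := commutator_le_centralizer σ h4 hfpf V hp hVp hV1 hVc hVσ hmin
    let f : commutator G →* commutator (G ⧸ V) :=
      ((QuotientGroup.mk' V).comp (commutator G).subtype).codRestrict _ fun x => by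
        have : (QuotientGroup.mk' V (x : G)) ∈ (commutator G).map (QuotientGroup.mk' V) :=
          ⟨x, x.2, rfl⟩
        have e : (commutator G).map (QuotientGroup.mk' V) ≤ commutator (G ⧸ V) := by
          rw [commutator_def, commutator_def, Subgroup.map_commutator]
          exact Subgroup.commutator_mono le_top le_top
        exact e this
    refine Subgroup.isNilpotent_of_ker_le_center f ?_
    intro x hx
    have hxV : (x : G) ∈ V := by
      rw [← QuotientGroup.eq_one_iff]; exact congrArg Subtype.val hx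
    rw [Subgroup.mem_center_iff]
    intro y
    exact Subtype.ext ((Subgroup.mem_centralizer_iff.mp (hcen y.2) x hxV).symm)

end Cfsg.Agent.FpfFour
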